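import Mathlib
import Cfsg.Agent.Lib.Helper32.FCSol3

/-!
# Groups with one involution and a self-centralizing normal `2`-subgroup, III (helper32)
-/

set_option autoImplicit false

namespace Cfsg.Agent.Lib.Helper32.FCSol

open Subgroup QuaternionGroup

/-- the quotient map of a generalized quaternion group onto the four-group -/
def quatToDih (m : ℕ) (hm : Even m) : QuaternionGroup m →* DihedralGroup 2 where
  toFun
    | a i => DihedralGroup.r (ZMod.castHom (Dvd.intro m rfl : 2 ∣ 2 * m) (ZMod 2) i)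
    | xa i => DihedralGroup.sr (ZMod.castHom (Dvd.intro m rfl : 2 ∣ 2 * m) (ZMod 2) i)
  map_one' := by
    rw [QuaternionGroup.one_def, DihedralGroup.one_def]
    simp
  map_mul' := by
    have hm0 : ((m : ℕ) : ZMod 2) = 0 := (ZMod.natCast_eq_zero_iff m 2).2 hm.two_dvd
    rintro (i | i) (j | j)
    · simp only [a_mul_a, DihedralGroup.r_mul_r, map_add]
    · simp only [a_mul_xa, DihedralGroup.r_mul_sr, map_sub]
    · simp only [xa_mul_a, DihedralGroup.sr_mul_r, map_add]
    · simp only [xa_mul_xa, DihedralGroup.sr_mul_sr, map_sub, map_add, map_natCast, hm0, zero_add]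

theorem quatToDih_surjective (m : ℕ) (hm : Even m) : Function.Surjective (quatToDih m hm) := by
  rintro (i | i)
  · obtain ⟨j, hj⟩ := ZMod.ringHom_surjective (ZMod.castHom (Dvd.intro m rfl : 2 ∣ 2 * m) (ZMod 2)) i
    exact ⟨a j, by change DihedralGroup.r _ = _; rw [hj]⟩
  · obtain ⟨j, hj⟩ := ZMod.ringHom_surjective (ZMod.castHom (Dvd.intro m rfl : 2 ∣ 2 * m) (ZMod 2)) i
    exact ⟨xa j, by change DihedralGroup.sr _ = _; rw [hj]⟩

theorem ker_quatToDih_le (m : ℕ) [NeZero m] (hm : Even m) :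
    (quatToDih m hm).ker ≤ zpowers (a 1 : QuaternionGroup m) := by
  rintro (i | i) hx
  · exact Cfsg.Agent.Lib.Helper5.quaternion_a_mem_zpowers i
  · exfalso
    rw [MonoidHom.mem_ker] at hx
    change DihedralGroup.sr _ = _ at hx
    rw [DihedralGroup.one_def] at hx
    cases hx

/-- the conclusion: a normal subgroup whose quotient is `1`, `V₄`, `A₄` or `S₄` -/
def Small {Y : Type*} [Group Y] (N : Subgroup Y) : Prop :=
  N = ⊤ ∨ (∃ f : Y →* DihedralGroup 2, Function.Surjective f ∧ f.ker = N) ∨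
    (∃ f : Y →* alternatingGroup (Fin 4), Function.Surjective f ∧ f.ker = N) ∨
    (∃ f : Y →* Equiv.Perm (Fin 4), Function.Surjective f ∧ f.ker = N)

variable {Y : Type*} [Group Y] [Finite Y]

theorem exists_of_isPGroup (h : UI Y) (hY : IsPGroup 2 Y) :
    ∃ N : Subgroup Y, N.Normal ∧ IsCyclic N ∧ Small N := by
  rcases h.group_cyclic_or_quaternion hY with hc | ⟨n, ⟨e⟩⟩
  · exact ⟨⊤, inferInstance, isCyclic_of_surjective Subgroup.topEquiv.symm
      Subgroup.topEquiv.symm.surjective, Or.inl rfl⟩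
  · have hev : Even (2 ^ (n + 1)) := by
      rw [pow_succ]; exact even_two.mul_left _
    set f : Y →* DihedralGroup 2 := (quatToDih _ hev).comp e.toMonoidHom with hf
    refine ⟨f.ker, inferInstance, ?_, Or.inr (Or.inl ⟨f, ?_, rfl⟩)⟩
    · have hle : f.ker ≤ zpowers (e.symm (a 1)) := by
        intro x hx
        have h1 : e x ∈ (quatToDih _ hev).ker := hx
        obtain ⟨k, hk⟩ := mem_zpowers_iff.1 (ker_quatToDih_le _ hev h1)
        refine mem_zpowers_iff.2 ⟨k, ?_⟩
        rw [← map_zpow, hk, MulEquiv.symm_apply_apply]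
      exact Subgroup.isCyclic_of_le hle
    · exact (quatToDih_surjective _ hev).comp e.surjective

omit [Finite Y] in
theorem ker_comp_mk' {X : Type*} [Group X] (Z : Subgroup Y) [Z.Normal] (ε : Y ⧸ Z ≃* X) :
    (ε.toMonoidHom.comp (QuotientGroup.mk' Z)).ker = Z := by
  ext x
  rw [MonoidHom.mem_ker]
  simp

theorem exists_cyclic_normal (h : UI Y) (T : Subgroup Y) [T.Normal] (hT : IsPGroup 2 T)
    (hC : centralizer (T : Set Y) ≤ T) : ∃ N : Subgroup Y, N.Normal ∧ IsCyclic N ∧ Small N := by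
  rcases h.cyclic_or_quaternion T hT with hc | ⟨n, ⟨e⟩⟩
  · exact exists_of_isPGroup h (isPGroup_of_cyclic T hT hC hc)
  · cases n with
    | succ m => exact exists_of_isPGroup h (isPGroup_of_quaternion T hT hC m e)
    | zero =>
      have e' : T ≃* QuaternionGroup 2 := e
      have : Fact (Nat.Prime 2) := ⟨Nat.prime_two⟩
      have hcyc : IsCyclic (centralizer (T : Set Y)) :=
        isCyclic_of_prime_card (card_centralizer_q8 T e' hC)
      rcases quot_cases h T e' hC with h1 | ⟨⟨ε⟩⟩ | ⟨⟨ε⟩⟩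
      · exact exists_of_isPGroup h h1
      · exact ⟨centralizer (T : Set Y), inferInstance, hcyc, Or.inr (Or.inr (Or.inl
          ⟨ε.toMonoidHom.comp (QuotientGroup.mk' _),
            ε.surjective.comp (QuotientGroup.mk'_surjective _), ker_comp_mk' _ ε⟩))⟩
      · exact ⟨centralizer (T : Set Y), inferInstance, hcyc, Or.inr (Or.inr (Or.inr
          ⟨ε.toMonoidHom.comp (QuotientGroup.mk' _),
            ε.surjective.comp (QuotientGroup.mk'_surjective _), ker_comp_mk' _ ε⟩))⟩

end Cfsg.Agent.Lib.Helper32.FCSol
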