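import Mathlib
import Cfsg.Agent.Lib.Helper32.FCSol1

/-!
# Normal subgroups with cyclic Sylow subgroups in small groups (helper32)
-/

set_option autoImplicit false

namespace Cfsg.Agent.Lib.Helper32.FCSol

open Subgroup Equiv

/-- no Klein four-subgroup -/
def NK {X : Type*} [Group X] (M : Subgroup X) : Prop :=
  ∀ a ∈ M, ∀ b ∈ M, a * a = 1 → b * b = 1 → a * b = b * a → a = 1 ∨ b = 1 ∨ a = b

theorem nk_aux {M : Type*} [Group M] [Finite M] [IsZGroup M] (a b : M) (ha : a * a = 1)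
    (hb : b * b = 1) (hab : a * b = b * a) : a = 1 ∨ b = 1 ∨ a = b := by
  classical
  by_contra hcon
  push Not at hcon
  obtain ⟨ha1, hb1, hne⟩ := hcon
  have : Fact (Nat.Prime 2) := ⟨Nat.prime_two⟩
  have hoa : orderOf a = 2 := orderOf_eq_prime (by rw [pow_two]; exact ha) ha1
  have hob : orderOf b = 2 := orderOf_eq_prime (by rw [pow_two]; exact hb) hb1
  have hA : IsPGroup 2 (zpowers a) := IsPGroup.of_card (n := 1) (by rw [Nat.card_zpowers, hoa]; rfl)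
  have hB : IsPGroup 2 (zpowers b) := IsPGroup.of_card (n := 1) (by rw [Nat.card_zpowers, hob]; rfl)
  have hn : zpowers a ≤ normalizer ((zpowers b : Subgroup M) : Set M) := by
    rw [zpowers_le]
    apply centralizer_le_normalizer
    rw [mem_centralizer_iff]
    intro x hx
    obtain ⟨k, rfl⟩ := mem_zpowers_iff.1 hx
    exact (((show Commute a b from hab).zpow_right k).eq).symm
  have hH : IsPGroup 2 (zpowers a ⊔ zpowers b : Subgroup M) :=
    IsPGroup.to_sup_of_normal_right' hA hB hn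
  have hc : IsCyclic (zpowers a ⊔ zpowers b : Subgroup M) := hH.isCyclic_of_isZGroup
  have haH : a ∈ zpowers a ⊔ zpowers b := (le_sup_left : zpowers a ≤ _) (mem_zpowers a)
  have hbH : b ∈ zpowers a ⊔ zpowers b := (le_sup_right : zpowers b ≤ _) (mem_zpowers b)
  have := Fintype.ofFinite (zpowers a ⊔ zpowers b : Subgroup M)
  have h1 := IsCyclic.card_pow_eq_one_le (α := (zpowers a ⊔ zpowers b : Subgroup M)) (n := 2)
    (by norm_num)
  have h2 : ({1, ⟨a, haH⟩, ⟨b, hbH⟩} : Finset (zpowers a ⊔ zpowers b : Subgroup M)) ⊆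
      Finset.univ.filter (fun x => x ^ 2 = 1) := by
    intro x hx
    simp only [Finset.mem_insert, Finset.mem_singleton] at hx
    rw [Finset.mem_filter]
    refine ⟨Finset.mem_univ _, ?_⟩
    rcases hx with rfl | rfl | rfl
    · simp
    · apply Subtype.ext; simp [pow_two, ha]
    · apply Subtype.ext; simp [pow_two, hb]
  have h3 := Finset.card_le_card h2
  have h4 : ({1, ⟨a, haH⟩, ⟨b, hbH⟩} : Finset (zpowers a ⊔ zpowers b : Subgroup M)).card = 3 := by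
    rw [Finset.card_eq_three]
    refine ⟨_, _, _, ?_, ?_, ?_, rfl⟩
    · intro h; exact ha1 (congrArg Subtype.val h).symm
    · intro h; exact hb1 (congrArg Subtype.val h).symm
    · intro h; exact hne (congrArg Subtype.val h)
  omega

theorem nk_of_isZGroup {X : Type*} [Group X] [Finite X] (M : Subgroup X) [IsZGroup M] : NK M := by
  intro a ha b hb h1 h2 h3
  have := nk_aux (⟨a, ha⟩ : M) ⟨b, hb⟩ (Subtype.ext h1) (Subtype.ext h2) (Subtype.ext h3)
  rcases this with h | h | h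
  · exact Or.inl (congrArg Subtype.val h)
  · exact Or.inr (Or.inl (congrArg Subtype.val h))
  · exact Or.inr (Or.inr (congrArg Subtype.val h))

theorem NK.false_of_conj {X : Type*} [Group X] {M : Subgroup X} (h : NK M) {a g : X} (ha : a ∈ M)
    (hg : g * a * g⁻¹ ∈ M) (h1 : a * a = 1) (h2 : a ≠ 1) (h3 : a * (g * a * g⁻¹) = g * a * g⁻¹ * a)
    (h4 : a ≠ g * a * g⁻¹) : False := by
  have hb : (g * a * g⁻¹) * (g * a * g⁻¹) = 1 := by
    have : (g * a * g⁻¹) * (g * a * g⁻¹) = g * (a * a) * g⁻¹ := by group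
    rw [this, h1]; group
  rcases h a ha _ hg h1 hb h3 with h5 | h5 | h5
  · exact h2 h5
  · apply h2
    have : a = g⁻¹ * (g * a * g⁻¹) * g := by group
    rw [this, h5]; group
  · exact h4 h5

set_option maxRecDepth 1000000 in
theorem perm4_key : ∀ σ : Perm (Fin 4), σ ≠ 1 →
    (∃ h : Perm (Fin 4), σ * σ = 1 ∧ σ * ((h * h) * σ * (h * h)⁻¹) = ((h * h) * σ * (h * h)⁻¹) * σ ∧
      σ ≠ (h * h) * σ * (h * h)⁻¹) ∨
    (∃ u h : Perm (Fin 4),
      ((u * u) * σ * (u * u)⁻¹ * σ⁻¹) * ((u * u) * σ * (u * u)⁻¹ * σ⁻¹) = 1 ∧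
      ((u * u) * σ * (u * u)⁻¹ * σ⁻¹) ≠ 1 ∧
      ((u * u) * σ * (u * u)⁻¹ * σ⁻¹) * ((h * h) * ((u * u) * σ * (u * u)⁻¹ * σ⁻¹) * (h * h)⁻¹) =
        ((h * h) * ((u * u) * σ * (u * u)⁻¹ * σ⁻¹) * (h * h)⁻¹) * ((u * u) * σ * (u * u)⁻¹ * σ⁻¹) ∧
      ((u * u) * σ * (u * u)⁻¹ * σ⁻¹) ≠ (h * h) * ((u * u) * σ * (u * u)⁻¹ * σ⁻¹) * (h * h)⁻¹) := by
  decide

theorem perm4_eq_bot (M : Subgroup (Perm (Fin 4)))
    (hn : ∀ g : Perm (Fin 4), ∀ m ∈ M, (g * g) * m * (g * g)⁻¹ ∈ M) (hNK : NK M) : M = ⊥ := by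
  rw [eq_bot_iff]
  intro σ hσ
  rw [mem_bot]
  by_contra h1
  rcases perm4_key σ h1 with ⟨h, h2, h3, h4⟩ | ⟨u, h, h2, h3, h4, h5⟩
  · exact hNK.false_of_conj hσ (hn h σ hσ) h2 h1 h3 h4
  · have hc : (u * u) * σ * (u * u)⁻¹ * σ⁻¹ ∈ M := mul_mem (hn u σ hσ) (inv_mem hσ)
    exact hNK.false_of_conj hc (hn h _ hc) h2 h3 h4 h5

set_option maxRecDepth 1000000 in
theorem perm5_cent : ∀ m : Perm (Fin 5),
    m * ((swap 0 1 * swap 1 2) * (swap 0 1 * swap 1 2)) =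
      ((swap 0 1 * swap 1 2) * (swap 0 1 * swap 1 2)) * m →
    m * ((swap 2 3 * swap 3 4) * (swap 2 3 * swap 3 4)) =
      ((swap 2 3 * swap 3 4) * (swap 2 3 * swap 3 4)) * m → m = 1 := by
  decide

end Cfsg.Agent.Lib.Helper32.FCSol
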