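import Mathlib

/-!
# Metacyclic presentations (helper32)

A finite group generated by `x`, `y` of coprime orders `n`, `m` with `x⁻¹ y x = y ^ r` has the
presentation `⟨x, y | x ^ n, y ^ m, x⁻¹ y x = y ^ r⟩`.
-/

set_option autoImplicit false

namespace Cfsg.Agent.Lib.Helper32.MetaPres

open Subgroup

theorem conj_pow_eq {P : Type*} [Group P] {X0 Y0 : P} {r : ℕ} (hrel : X0⁻¹ * Y0 * X0 = Y0 ^ r)
    (j : ℕ) : (X0 ^ j)⁻¹ * Y0 * X0 ^ j = Y0 ^ (r ^ j) := by
  induction j with
  | zero => simp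
  | succ j ih =>
    have h1 : (X0 ^ (j + 1))⁻¹ * Y0 * X0 ^ (j + 1) = X0⁻¹ * ((X0 ^ j)⁻¹ * Y0 * X0 ^ j) * X0 := by
      rw [pow_succ]; group
    have h2 : ∀ k : ℕ, X0⁻¹ * Y0 ^ k * X0 = (X0⁻¹ * Y0 * X0) ^ k := by
      intro k
      have := conj_pow (a := X0⁻¹) (b := Y0) (i := k)
      rw [inv_inv] at this
      exact this.symm
    rw [h1, ih, h2, hrel, ← pow_mul, pow_succ, mul_comm]

theorem conj_pow_pow_eq {P : Type*} [Group P] {X0 Y0 : P} {r : ℕ}
    (hrel : X0⁻¹ * Y0 * X0 = Y0 ^ r) (j i : ℕ) :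
    (X0 ^ j)⁻¹ * Y0 ^ i * X0 ^ j = Y0 ^ (i * r ^ j) := by
  have := conj_pow (a := (X0 ^ j)⁻¹) (b := Y0) (i := i)
  rw [inv_inv] at this
  rw [← this, conj_pow_eq hrel, ← pow_mul, mul_comm]

theorem mem_normalizer_of_both {P : Type*} [Group P] (B : Subgroup P) (g : P)
    (h1 : ∀ b ∈ B, g * b * g⁻¹ ∈ B) (h2 : ∀ b ∈ B, g⁻¹ * b * g ∈ B) :
    g ∈ normalizer (B : Set P) := by
  rw [mem_normalizer_iff]
  intro h
  refine ⟨h1 h, fun hh => ?_⟩
  have := h2 _ hh
  have h3 : g⁻¹ * (g * h * g⁻¹) * g = h := by group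
  rwa [h3] at this

theorem card_dvd_of_metacyclic {P : Type*} [Group P] (X0 Y0 : P) (n m r : ℕ) (hn : 0 < n)
    (hgen : ∀ H : Subgroup P, X0 ∈ H → Y0 ∈ H → H = ⊤)
    (hX : X0 ^ n = 1) (hY : Y0 ^ m = 1) (hrel : X0⁻¹ * Y0 * X0 = Y0 ^ r) :
    Nat.card P ∣ m * n := by
  set B := zpowers Y0 with hB
  have hXinv : X0 ^ (n - 1) = X0⁻¹ := by
    rw [eq_inv_iff_mul_eq_one, ← pow_succ, Nat.sub_add_cancel hn, hX]
  have hXn : X0 ∈ normalizer (B : Set P) := by
    apply mem_normalizer_of_both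
    · intro b hb
      obtain ⟨k, rfl⟩ := mem_zpowers_iff.1 hb
      have h1 : X0 * Y0 * X0⁻¹ = Y0 ^ (r ^ (n - 1)) := by
        have := conj_pow_eq hrel (n - 1)
        rwa [hXinv, inv_inv] at this
      have h2 : X0 * Y0 ^ k * X0⁻¹ = (X0 * Y0 * X0⁻¹) ^ k := (conj_zpow).symm
      rw [h2, h1]
      exact zpow_mem (pow_mem (mem_zpowers Y0) _) _
    · intro b hb
      obtain ⟨k, rfl⟩ := mem_zpowers_iff.1 hb
      have h2 : X0⁻¹ * Y0 ^ k * X0 = (X0⁻¹ * Y0 * X0) ^ k := by
        have := conj_zpow (a := X0⁻¹) (b := Y0) (i := k)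
        rw [inv_inv] at this
        exact this.symm
      rw [h2, hrel]
      exact zpow_mem (pow_mem (mem_zpowers Y0) _) _
  have hYn : Y0 ∈ normalizer (B : Set P) := le_normalizer (mem_zpowers Y0)
  have hBn : B.Normal := normalizer_eq_top_iff.1 (hgen _ hXn hYn)
  set q : P ⧸ B := QuotientGroup.mk' B X0 with hq
  have htop : (zpowers q).comap (QuotientGroup.mk' B) = ⊤ := by
    apply hgen
    · rw [mem_comap]; exact mem_zpowers q
    · rw [mem_comap]
      have : QuotientGroup.mk' B Y0 = 1 := (QuotientGroup.eq_one_iff _).2 (mem_zpowers Y0)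
      rw [this]; exact one_mem _
  have hz : zpowers q = ⊤ := by
    rw [eq_top_iff]
    intro g _
    obtain ⟨g, rfl⟩ := QuotientGroup.mk'_surjective B g
    have : g ∈ (zpowers q).comap (QuotientGroup.mk' B) := by rw [htop]; trivial
    exact this
  have hqn : q ^ n = 1 := by rw [hq, ← map_pow, hX, map_one]
  have hidx : B.index ∣ n := by
    have h1 : B.index = Nat.card (zpowers q) := by
      rw [hz, Subgroup.card_top]; rfl
    rw [h1, Nat.card_zpowers]
    exact orderOf_dvd_of_pow_eq_one hqn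
  have hcB : Nat.card B ∣ m := by
    rw [hB, Nat.card_zpowers]
    exact orderOf_dvd_of_pow_eq_one hY
  rw [← B.card_mul_index]
  exact Nat.mul_dvd_mul hcB hidx

/-- the relators of the metacyclic presentation -/
abbrev rels (n m r : ℕ) : Set (FreeGroup (Fin 2)) :=
  {FreeGroup.of (0 : Fin 2) ^ n, FreeGroup.of (1 : Fin 2) ^ m,
    (FreeGroup.of (0 : Fin 2))⁻¹ * FreeGroup.of 1 * FreeGroup.of 0 * (FreeGroup.of (1 : Fin 2) ^ r)⁻¹}

theorem metacyclic_presentation {X : Type*} [Group X] [Finite X] (x y : X) (n m r : ℕ)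
    (hgen : closure {x, y} = ⊤) (hx : orderOf x = n) (hy : orderOf y = m)
    (hrel : x⁻¹ * y * x = y ^ r) (hcop : n.Coprime m) :
    Nonempty (X ≃* PresentedGroup (rels n m r)) := by
  have hn : 0 < n := by rw [← hx]; exact orderOf_pos x
  have hm : 0 < m := by rw [← hy]; exact orderOf_pos y
  set f : Fin 2 → X := ![x, y] with hf
  have hrels : ∀ w ∈ rels n m r, FreeGroup.lift f w = 1 := by
    intro w hw
    simp only [Set.mem_insert_iff, Set.mem_singleton_iff] at hw
    rcases hw with rfl | rfl | rfl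
    · simp [hf, ← hx, pow_orderOf_eq_one]
    · simp [hf, ← hy, pow_orderOf_eq_one]
    · simp [hf, hrel]
  set φ := PresentedGroup.toGroup hrels with hφ
  have hφ0 : φ (PresentedGroup.of 0) = x := PresentedGroup.toGroup.of hrels
  have hφ1 : φ (PresentedGroup.of 1) = y := PresentedGroup.toGroup.of hrels
  have hsurj : Function.Surjective φ := by
    rw [← MonoidHom.range_eq_top, eq_top_iff, ← hgen, closure_le]
    rintro w (rfl | rfl)
    · exact ⟨_, hφ0⟩
    · exact ⟨_, hφ1⟩
  have hcard : Nat.card (PresentedGroup (rels n m r)) ∣ m * n := by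
    apply card_dvd_of_metacyclic (PresentedGroup.of 0) (PresentedGroup.of 1) n m r hn
    · intro H h0 h1
      rw [eq_top_iff]
      intro g _
      apply PresentedGroup.generated_by _ H
      intro j
      fin_cases j
      · exact h0
      · exact h1
    · have := PresentedGroup.one_of_mem (rels := rels n m r)
        (x := FreeGroup.of (0 : Fin 2) ^ n) (by simp)
      rw [map_pow] at this
      exact this
    · have := PresentedGroup.one_of_mem (rels := rels n m r)
        (x := FreeGroup.of (1 : Fin 2) ^ m) (by simp)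
      rw [map_pow] at this
      exact this
    · have := PresentedGroup.one_of_mem (rels := rels n m r)
        (x := (FreeGroup.of (0 : Fin 2))⁻¹ * FreeGroup.of 1 * FreeGroup.of 0 *
          (FreeGroup.of (1 : Fin 2) ^ r)⁻¹) (by simp)
      rw [map_mul, map_inv, mul_inv_eq_one, map_mul, map_mul, map_inv, map_pow] at this
      exact this
  have hpos : 0 < m * n := Nat.mul_pos hm hn
  have hfin : Finite (PresentedGroup (rels n m r)) := by
    apply Nat.finite_of_card_ne_zero
    intro h0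
    rw [h0] at hcard
    have := Nat.eq_zero_of_zero_dvd hcard
    omega
  have hX : m * n ∣ Nat.card X := by
    apply Nat.Coprime.mul_dvd_of_dvd_of_dvd hcop.symm
    · rw [← hy]; exact orderOf_dvd_natCard y
    · rw [← hx]; exact orderOf_dvd_natCard x
  have hle : Nat.card (PresentedGroup (rels n m r)) ≤ Nat.card X :=
    (Nat.le_of_dvd hpos hcard).trans (Nat.le_of_dvd Nat.card_pos hX)
  exact ⟨(MulEquiv.ofBijective φ (hsurj.bijective_of_nat_card_le hle)).symm⟩

end Cfsg.Agent.Lib.Helper32.MetaPres
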