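import Mathlib
import Cfsg.Prelude.Def_FusionSystem
import Cfsg.Prelude.Def_CaseTheorems
import Cfsg.Agent.Lib.Helper32.ZStar

/-!
The centre of the `2`-fusion system of a finite group, relative to the `Z*`-theorem (`ZStar.Hyp`).
-/

set_option autoImplicit false

namespace Cfsg.Agent.Lib.Helper32.ZStar

open Cfsg Subgroup
open Cfsg.Agent.Lib.Helper49 Cfsg.Agent.Lib.Helper33
open scoped Pointwise

universe u

theorem Hyp.center_eq (h : Hyp.{u}) {G : Type u} [Group G] [Finite G] (S : Sylow 2 G) :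
    (Cfsg.groupFusionSystem (S : Subgroup G)).center =
      (S : Subgroup G) ⊓ (Subgroup.center (G ⧸ Cfsg.oddCore G)).comap
        (QuotientGroup.mk' (Cfsg.oddCore G)) := by
  have hOodd : (Nat.card (oddCore G)).Coprime 2 := Lib.Lead.card_pPrimeCore_coprime 2
  have hSO : (S : Subgroup G) ⊓ oddCore G = ⊥ := inf_eq_bot_of_isPGroup_of_coprime S.2 hOodd
  apply le_antisymm
  · apply sSup_le
    rintro Q ⟨hQS, hQ⟩ x hx
    refine mem_inf.2 ⟨hQS hx, ?_⟩
    have hiso : IsIsolated x := by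
      apply isIsolated_of_sylow S (hQS hx)
      intro g hg
      have hP : zpowers x ≤ S := by rw [zpowers_le]; exact hQS hx
      have hφ : conjHom (zpowers x) g ∈ (groupFusionSystem (S : Subgroup G)).Hom (zpowers x) := by
        refine ⟨hP, ?_, g, fun y => rfl⟩
        rintro ⟨y, k, rfl⟩
        show g * x ^ k * g⁻¹ ∈ (S : Subgroup G)
        rw [← conj_zpow]
        exact zpow_mem hg k
      obtain ⟨ψ, -, h1, h2⟩ := hQ _ _ hφ
      have e1 := h1 ⟨x, mem_zpowers x⟩
      have e2 := h2 ⟨x, hx⟩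
      have e3 : (inclusion le_sup_left ⟨x, mem_zpowers x⟩ : (zpowers x ⊔ Q : Subgroup G)) =
          inclusion le_sup_right ⟨x, hx⟩ := rfl
      rw [e3, e2] at e1
      exact e1.symm
    obtain ⟨k, hk⟩ := S.2 ⟨x, hQS hx⟩
    have hk' : x ^ 2 ^ k = 1 := by simpa using congrArg Subtype.val hk
    have hz := h.inZStar ⟨k, hk'⟩ hiso
    rw [mem_comap, mem_center_iff]
    intro y'
    obtain ⟨y, rfl⟩ := QuotientGroup.mk'_surjective _ y'
    have h3 : QuotientGroup.mk' (oddCore G) (y * x * y⁻¹ * x⁻¹) = 1 :=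
      (QuotientGroup.eq_one_iff _).2 (hz y)
    rw [map_mul, map_mul, map_mul, map_inv, map_inv, mul_inv_eq_one, mul_inv_eq_iff_eq_mul] at h3
    exact h3
  · apply le_sSup
    set Z₀ : Subgroup G := (S : Subgroup G) ⊓ (Subgroup.center (G ⧸ Cfsg.oddCore G)).comap
        (QuotientGroup.mk' (Cfsg.oddCore G)) with hZ₀
    have ha : ∀ z ∈ Z₀, ∀ g : G, g * z * g⁻¹ * z⁻¹ ∈ oddCore G := by
      intro z hz g
      have h1 := (mem_inf.1 hz).2
      rw [mem_comap, mem_center_iff] at h1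
      have h2 := h1 (QuotientGroup.mk' _ g)
      rw [← QuotientGroup.eq_one_iff]
      show QuotientGroup.mk' (oddCore G) (g * z * g⁻¹ * z⁻¹) = 1
      rw [map_mul, map_mul, map_mul, map_inv, map_inv, mul_inv_eq_one, mul_inv_eq_iff_eq_mul]
      exact h2
    have hb : ∀ z ∈ Z₀, ∀ g : G, g * z * g⁻¹ ∈ (S : Subgroup G) → g * z * g⁻¹ = z := by
      intro z hz g hg
      have h1 : g * z * g⁻¹ * z⁻¹ ∈ (S : Subgroup G) ⊓ oddCore G :=
        mem_inf.2 ⟨mul_mem hg (inv_mem (mem_inf.1 hz).1), ha z hz g⟩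
      rw [hSO, mem_bot, mul_inv_eq_one] at h1
      exact h1
    have hZ2 : IsPGroup 2 Z₀ := S.2.to_le inf_le_left
    refine ⟨inf_le_left, ?_⟩
    rintro P φ ⟨hPS, hφS, g, hg⟩
    have hZc : ∀ s ∈ (S : Subgroup G), ∀ z ∈ Z₀, s * z = z * s := by
      intro s hs z hz
      have := hb z hz s (mul_mem (mul_mem hs (mem_inf.1 hz).1) (inv_mem hs))
      rw [mul_inv_eq_iff_eq_mul] at this
      exact this
    set P' : Subgroup G := MulAut.conj g • P with hP'
    have hP'S : P' ≤ S := by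
      rintro _ ⟨x, hx, rfl⟩
      have := hφS ⟨x, hx⟩
      rw [hg] at this
      exact this
    set Y : Subgroup G := (Z₀ ⊔ oddCore G) ⊓ centralizer (P' : Set G) with hY
    have hZY : Z₀ ≤ Y := by
      refine le_inf le_sup_left ?_
      intro z hz
      rw [mem_centralizer_iff]
      intro s hs
      exact hZc s (hP'S hs) z hz
    have hrel : RelSyl 2 Z₀ Y := (relSyl_sup_p' hZ2 hOodd).mono hZY inf_le_left
    have hgZ : MulAut.conj g • Z₀ ≤ Y := by
      rintro _ ⟨z, hz, rfl⟩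
      show g * z * g⁻¹ ∈ Y
      refine mem_inf.2 ⟨?_, ?_⟩
      · have : g * z * g⁻¹ = (g * z * g⁻¹ * z⁻¹) * z := by group
        rw [this]
        exact mul_mem (mem_sup_right (ha z hz g)) (mem_sup_left hz)
      · rw [mem_centralizer_iff]
        rintro _ ⟨x, hx, rfl⟩
        show g * x * g⁻¹ * (g * z * g⁻¹) = g * z * g⁻¹ * (g * x * g⁻¹)
        have := hZc x (hPS hx) z hz
        calc g * x * g⁻¹ * (g * z * g⁻¹) = g * (x * z) * g⁻¹ := by group
          _ = g * (z * x) * g⁻¹ := by rw [this]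
          _ = _ := by group
    obtain ⟨c, hc, hcZ⟩ := hrel.exists_conj_le hgZ (isPGroup_conj_smul hZ2 g)
    have hz : ∀ z ∈ Z₀, (c * g) * z * (c * g)⁻¹ = z := by
      intro z hz
      apply hb z hz
      have : (c * g) * z * (c * g)⁻¹ ∈ Z₀ := by
        apply hcZ
        refine ⟨g * z * g⁻¹, ⟨z, hz, rfl⟩, ?_⟩
        show c * (g * z * g⁻¹) * c⁻¹ = _
        group
      exact (mem_inf.1 this).1
    have hx : ∀ x ∈ P, (c * g) * x * (c * g)⁻¹ = g * x * g⁻¹ := by
      intro x hx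
      have h1 := (mem_inf.1 hc).2
      rw [mem_centralizer_iff] at h1
      have h2 := h1 (g * x * g⁻¹) ⟨x, hx, rfl⟩
      calc (c * g) * x * (c * g)⁻¹ = c * (g * x * g⁻¹) * c⁻¹ := by group
        _ = g * x * g⁻¹ * c * c⁻¹ := by rw [h2]
        _ = _ := by group
    refine ⟨conjHom (P ⊔ Z₀) (c * g), ⟨sup_le hPS inf_le_left, ?_, c * g, fun y => rfl⟩, ?_, ?_⟩
    · have : (P ⊔ Z₀).map (MulAut.conj (c * g)).toMonoidHom ≤ S := by
        rw [Subgroup.map_sup]
        refine sup_le ?_ ?_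
        · rintro _ ⟨x, hx', rfl⟩
          show (c * g) * x * (c * g)⁻¹ ∈ (S : Subgroup G)
          rw [hx x hx']
          exact hP'S ⟨x, hx', rfl⟩
        · rintro _ ⟨z, hz', rfl⟩
          show (c * g) * z * (c * g)⁻¹ ∈ (S : Subgroup G)
          rw [hz z hz']
          exact (mem_inf.1 hz').1
      intro y
      exact this ⟨y, y.2, rfl⟩
    · intro x
      rw [hg]
      exact hx x x.2
    · intro z
      exact hz z z.2

end Cfsg.Agent.Lib.Helper32.ZStar
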